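import Cfsg.Agent.H0.VON3.K0
set_option maxRecDepth 100000
set_option Elab.async false
namespace H0.VON3
open H0 BN 
universe u
theorem stem {G : Type u} [Group G] [Finite G] (P : Pres G 8 H0.MON.B) (hG : commutator G = ⊤) : StemElt G (3 ^ (0 + 1)) :=
  stemElt_of P hG R.p J c (by decide) (all_take_done (all_take_step (all_take_step (all_take_step (all_take_step (all_take_step (all_take_step (all_take_step (all_take_step (all_take_step (all_take_step (all_take_step (all_take_step (all_take_step (all_take_step (all_take_step (all_take_step (all_take_zero _ E) (pw_done R (pw_step R (pw_step R (pw_step R (pw_step R (pw_step R (pw_step R (pw_step R (pw_zero R ((E.drop 0).take 6)) c0) c1) c2) c3) c4) c5) c6))) (pw_done R (pw_step R (pw_step R (pw_step R (pw_step R (pw_step R (pw_step R (pw_step R (pw_zero R ((E.drop 6).take 4)) c7) c8) c9) c10) c11) c12) c13))) (pw_done R (pw_step R (pw_step R (pw_step R (pw_step R (pw_step R (pw_step R (pw_step R (pw_zero R ((E.drop 10).take 3)) c14) c15) c16) c17) c18) c19) c20))) (pw_done R (pw_step R (pw_step R (pw_step R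 (pw_step R (pw_step R (pw_step R (pw_step R (pw_zero R ((E.drop 13).take 3)) c21) c22) c23) c24) c25) c26) c27))) (pw_done R (pw_step R (pw_step R (pw_step R (pw_step R (pw_step R (pw_step R (pw_step R (pw_zero R ((E.drop 16).take 1)) c28) c29) c30) c31) c32) c33) c34))) (pw_done R (pw_step R (pw_step R (pw_step R (pw_step R (pw_step R (pw_step R (pw_step R (pw_zero R ((E.drop 17).take 1)) c35) c36) c37) c38) c39) c40) c41))) (pw_done R (pw_step R (pw_step R (pw_step R (pw_step R (pw_step R (pw_step R (pw_step R (pw_zero R ((E.drop 18).take 4)) c42) c43) c44) c45) c46) c47) c48))) (pw_done R (pw_step R (pw_step R (pw_step R (pw_step R (pw_step R (pw_step R (pw_step R (pw_zero R ((E.drop 22).take 2)) c49) c50) c51) c52) c53) c54) c55))) (pw_done R (pw_step R (pw_step R (pw_step R (pw_step R (pw_step R (pw_step R (pw_step R (pw_zero R ((E.drop 24).take 1)) c56) c57) c58) c59) c60) c61) c62))) (pw_done R (pw_step R (pw_step R (pw_step R (pw_step R (pw_step R (pw_step R (pw_step R (pw_zero R ((E.drop 25).take 1)) c63) c64) c65) c66) c67) c68) c69))) (pw_done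 R (pw_step R (pw_step R (pw_step R (pw_step R (pw_step R (pw_step R (pw_step R (pw_zero R ((E.drop 26).take 1)) c70) c71) c72) c73) c74) c75) c76))) (pw_done R (pw_step R (pw_step R (pw_step R (pw_step R (pw_step R (pw_step R (pw_step R (pw_step R (pw_step R (pw_step R (pw_zero R ((E.drop 27).take 1)) c77) c78) c79) c80) c81) c82) c83) c84) c85) c86))) (pw_done R (pw_step R (pw_step R (pw_step R (pw_step R (pw_step R (pw_step R (pw_step R (pw_zero R ((E.drop 28).take 1)) c87) c88) c89) c90) c91) c92) c93))) (pw_done R (pw_step R (pw_step R (pw_step R (pw_step R (pw_step R (pw_step R (pw_step R (pw_zero R ((E.drop 29).take 2)) c94) c95) c96) c97) c98) c99) c100))) (pw_done R (pw_step R (pw_step R (pw_step R (pw_step R (pw_step R (pw_step R (pw_step R (pw_zero R ((E.drop 31).take 4)) c101) c102) c103) c104) c105) c106) c107))) (pw_done R (pw_step R (pw_step R (pw_step R (pw_step R (pw_step R (pw_step R (pw_step R (pw_zero R ((E.drop 35).take 3)) c108) c109) c110) c111) c112) c113) c114))) (by decide +kernel)) (eq_of_bits R (eqb_step R (eqb_step R (eqb_step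 R (eqb_step R (eqb_step R (eqb_step R (eqb_step R (eqb_zero R [8, 8, 8] []) c115) c116) c117) c118) c119) c120) c121))
    (ne_one_of_maps R (u := [8]) c122 (by decide)) (by decide +kernel)
end H0.VON3
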